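import Cfsg.Agent.Lib.Alt.Wreath
import Cfsg.Agent.Lib.Lie.Flag

/-!
The `p`-fusion system of `A_n` is simple for `n ≥ max (6, p²)` with `n ≡ 0, 1 mod p`.
-/

set_option autoImplicit false
set_option linter.unusedSectionVars false

namespace Cfsg.Agent.Alt

open Cfsg.Agent.Fus Equiv Equiv.Perm

variable {p : ℕ} [hp : Fact p.Prime] {ι κ : Type} [Fintype ι] [DecidableEq ι] [Fintype κ]
  [DecidableEq κ]

theorem even_of_pow {α : Type} [Fintype α] [DecidableEq α] (h2 : p ≠ 2) {g : Perm α} {k : ℕ}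
    (h : g ^ p ^ k = 1) : g ∈ alternatingGroup α := by
  have := congrArg sign h
  rw [map_pow, map_one] at this
  rcases Int.units_eq_one_or (sign g) with e | e
  · exact e
  · rw [e, ((hp.out.odd_of_ne_two h2).pow).neg_one_pow] at this
    exact absurd this (by decide)

theorem tr_even (h2 : p ≠ 2) (a : ι → ZMod p) : tr a ∈ alternatingGroup (Pt p ι κ) :=
  even_of_pow h2 (k := 1) (by rw [pow_one, tr_pow])

theorem blk_even_two (h2 : p = 2) (σ : Perm ι) : blk p κ σ ∈ alternatingGroup (Pt p ι κ) := by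
  rw [mem_alternatingGroup, sign_blk, h2, Int.units_sq]

theorem blk_even {σ : Perm ι} {k : ℕ} (h : σ ^ p ^ k = 1) :
    blk p κ σ ∈ alternatingGroup (Pt p ι κ) := by
  by_cases h2 : p = 2
  · exact blk_even_two h2 σ
  · exact even_of_pow h2 (k := k) (by rw [← map_pow, h, map_one])

theorem isConj_of_pow {α : Type} [Fintype α] [DecidableEq α] {x y : Perm α} (hx : x ^ p = 1)
    (hy : y ^ p = 1) (h : x.support.card = y.support.card) : IsConj x y := by
  refine isConj_of_cycleType_eq ?_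
  rw [← sum_cycleType, ← sum_cycleType, cycleType_of_pow_prime_eq_one hx,
    cycleType_of_pow_prime_eq_one hy, Multiset.sum_replicate, Multiset.sum_replicate] at h
  rw [cycleType_of_pow_prime_eq_one hx, cycleType_of_pow_prime_eq_one hy,
    Nat.eq_of_mul_eq_mul_right hp.out.pos h]

theorem card_support_tr (a : ι → ZMod p) :
    (tr (κ := κ) a).support.card = (Finset.univ.filter fun i => a i ≠ 0).card * p := by
  simp only [support, Finset.card_filter, Fintype.sum_sum_type, Fintype.sum_prod_type,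
    Finset.sum_mul]
  simp

theorem sign_tr_single_two (h2 : p = 2) (i : ι) :
    sign (tr (κ := κ) (Pi.single i (1 : ZMod p))) = -1 := by
  refine (card_support_eq_two.1 ?_).sign_eq
  rw [card_support_tr, show (Finset.univ.filter fun j => Pi.single (M := fun _ => ZMod p) i 1 j ≠ 0)
    = {i} by ext j; simp [Pi.single_apply], Finset.card_singleton, one_mul, h2]

variable (p ι κ) in
/-- The even translations. -/
def E0 : Subgroup (Perm (Pt p ι κ)) := W p κ ⊥ ⊓ alternatingGroup _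

theorem two_mem (i j : ι) (x : ZMod p) : tr (Pi.single i x - Pi.single j x) ∈ E0 p ι κ := by
  refine ⟨tr_mem_W _, ?_⟩
  have : tr (κ := κ) (Pi.single i x) =
      blk p κ (swap i j) * tr (Pi.single j x) * (blk p κ (swap i j))⁻¹ := by
    rw [blk_mul_tr]
    congr 1
    ext k
    simp [Pi.single_apply, swap_apply_eq_iff]
  rw [tr_sub, this]
  simp [mem_alternatingGroup, mul_comm, mul_left_comm]

theorem aff_mem_normalizer (σ : Perm ι) (t : ι → (ZMod p)ˣ) (a : ι → ZMod p) :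
    aff σ t a ∈ Subgroup.normalizer (E0 p ι κ : Set (Perm (Pt p ι κ))) :=
  mem_normalizer_of_conj_mem fun x hx => ⟨by
    obtain ⟨b, rfl⟩ := mem_W_bot.1 hx.1
    exact aff_mul_tr (κ := κ) σ t a b ▸ tr_mem_W _, alternatingGroup.normal.conj_mem x hx.2 _⟩

theorem W_le_normalizer {P : Subgroup (Perm ι)} :
    W p κ P ≤ Subgroup.normalizer (E0 p ι κ : Set (Perm (Pt p ι κ))) := by
  rintro _ ⟨σ, -, a, rfl⟩
  exact mul_mem (aff_mem_normalizer σ 1 0) (aff_mem_normalizer 1 1 a)

theorem zmod_two_aux : ∀ x : ZMod 2, x = 0 ∨ x = 1 := by decide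

theorem zmod_two (h : p = 2) (x : ZMod p) : x = 0 ∨ x = 1 := by
  subst h
  exact zmod_two_aux x

theorem one_add_one (h : p = 2) : (1 : ZMod p) + 1 = 0 := by
  subst h
  rfl

theorem card_single (j : ι) {x : ZMod p} (hx : x ≠ 0) :
    (Finset.univ.filter fun m => (Pi.single j x : ι → ZMod p) m ≠ 0).card = 1 := by
  rw [← Finset.card_singleton j]
  congr 1
  ext m
  simp [Pi.single_apply, hx]

variable (p) in
theorem card_two {j k : ι} (hjk : j ≠ k) : (Finset.univ.filter fun m =>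
    (Pi.single j 1 - Pi.single k 1 : ι → ZMod p) m ≠ 0).card = 2 := by
  rw [← Finset.card_pair hjk]
  congr 1
  ext m
  by_cases e : m = j <;> by_cases e' : m = k <;> simp_all

theorem two_eq_sub {a : ι → ZMod p} {i j : ι} (hi : a i = 1) (hj : a j = 0) :
    Pi.single i 1 - Pi.single j 1 = a - fun k => a ((swap i j)⁻¹ k) := by
  ext k
  simp only [swap_inv, swap_apply_def, Pi.sub_apply, Pi.single_apply]
  split_ifs <;> simp_all

theorem swap_tr_pow (h : p = 2) {j k : ι} (hjk : j ≠ k) :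
    (blk p κ (swap j k) * tr (1 - (Pi.single j 1 - Pi.single k 1))) ^ p = 1 := by
  have h4 := one_add_one h
  rw [show ∀ g : Perm (Pt p ι κ), g ^ p = g * g from fun g => by rw [← sq, ← h]]
  ext (⟨m, x⟩ | m)
  · by_cases e : m = j <;> by_cases e' : m = k <;> simp_all [swap_apply_def, add_assoc]
  · simp

theorem swap_tr_support {j k : ι} (hjk : j ≠ k) : (tr (1 : ι → ZMod p)).support =
    (blk p κ (swap j k) * tr (1 - (Pi.single j 1 - Pi.single k 1))).support := by
  ext (⟨m, x⟩ | m)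
  · by_cases e : m = j <;> by_cases e' : m = k <;> simp_all [swap_apply_def, eq_comm]
  · simp

theorem swap_tr_comm {j k l : ι} (hjk : j ≠ k) (hl : l ≠ j) (hl' : l ≠ k) (a : ι → ZMod p) :
    tr (Pi.single k 1 - Pi.single j 1) = blk p κ (swap j k) * tr a *
      (tr (Pi.single j 1 - Pi.single l 1) * (blk p κ (swap j k) * tr a)⁻¹ *
        (tr (Pi.single j 1 - Pi.single l 1))⁻¹) := by
  rw [← mul_assoc, ← mul_assoc, mul_assoc (blk p κ _), tr_comm, ← mul_assoc, mul_inv_rev,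
    ← mul_assoc, mul_inv_cancel_right, blk_mul_tr, ← tr_sub]
  congr 1
  ext m
  simp only [swap_inv, swap_apply_def, Pi.sub_apply, Pi.single_apply]
  split_ifs <;> simp_all

theorem dia_single_eq {i j k : ι} (e : i ≠ j) (hk : k ≠ i) (hk' : k ≠ j) (u : (ZMod p)ˣ) :
    dia κ (Pi.mulSingle i u) = blk p κ (swap j i * swap i k) *
      dia κ (Pi.mulSingle j u) * (blk p κ (swap j i * swap i k))⁻¹ := by
  rw [eq_mul_inv_iff_mul_eq]
  ext (⟨m, x⟩ | m)
  · simp only [Perm.mul_apply, blk_inl, dia_inl, swap_apply_def, Pi.mulSingle_apply]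
    split_ifs <;> simp_all
  · simp

/-- The block of a point. -/
def β : Pt p ι κ → Option ι := Sum.elim (fun x => some x.1) fun _ => none

section

variable [Subsingleton κ] (h3 : 3 ≤ Fintype.card ι)
include h3

theorem exists_third (i j : ι) : ∃ k, k ≠ i ∧ k ≠ j := by
  by_contra! h
  have := Finset.card_le_card (s := Finset.univ) (t := {i, j}) fun l _ => by
    by_cases e : l = i
    exacts [by simp [e], by simp [h l e]]
  have := Finset.card_le_two (a := i) (b := j)
  simp only [Finset.card_univ] at *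
  omega

theorem β_eq_iff {S : Subgroup (Perm (Pt p ι κ))} (h1 : E0 p ι κ ≤ S) (h2 : S ≤ W p κ ⊤)
    {ω ω' : Pt p ι κ} : β ω = β ω' ↔ ∀ s ∈ S, (s ω = ω ↔ s ω' = ω') := by
  constructor
  · intro h s hs
    obtain ⟨σ, -, a, rfl⟩ := h2 hs
    rcases ω with ⟨i, x⟩ | k <;> rcases ω' with ⟨j, y⟩ | l <;> simp_all [β]
  · intro h
    rcases ω with ⟨i, x⟩ | k <;> rcases ω' with ⟨j, y⟩ | l
    · by_contra e
      have e' : i ≠ j := fun e' => e (by simp [β, e'])
      obtain ⟨k, hk, hk'⟩ := exists_third h3 i j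
      simpa [e', hk.symm, hk'.symm] using h _ (h1 (two_mem j k 1))
    · obtain ⟨k, hk, -⟩ := exists_third h3 i i
      simpa [hk.symm] using h _ (h1 (two_mem i k 1))
    · obtain ⟨k, hk, -⟩ := exists_third h3 j j
      simpa [hk.symm] using h _ (h1 (two_mem j k 1))
    · rfl

theorem β_map {S : Subgroup (Perm (Pt p ι κ))} (h1 : E0 p ι κ ≤ S) (h2 : S ≤ W p κ ⊤)
    {g : Perm (Pt p ι κ)} (hg : g ∈ Subgroup.normalizer (S : Set (Perm (Pt p ι κ))))
    {ω ω' : Pt p ι κ} (h : β ω = β ω') : β (g ω) = β (g ω') :=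
  (β_eq_iff h3 h1 h2).2 fun s hs => by
    simpa [symm_apply_eq] using (β_eq_iff h3 h1 h2).1 h _ ((inv_mem hg s).1 hs)

theorem normalizer_le_E0 {P : Subgroup (Perm ι)} :
    Subgroup.normalizer ((W p κ P ⊓ alternatingGroup _ : Subgroup _) : Set (Perm (Pt p ι κ))) ≤
      Subgroup.normalizer (E0 p ι κ : Set (Perm (Pt p ι κ))) := fun g hg =>
  mem_normalizer_of_conj_mem fun x hx => by
    have h1 : E0 p ι κ ≤ W p κ P ⊓ alternatingGroup _ := inf_le_inf_right _ (W_mono bot_le)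
    obtain ⟨⟨σ, -, a, e⟩, h2⟩ := (hg x).1 (h1 hx)
    refine ⟨⟨σ, Perm.ext fun i => ?_, a, e⟩, h2⟩
    obtain ⟨b, rfl⟩ := mem_W_bot.1 hx.1
    have := β_map h3 h1 (inf_le_left.trans (W_mono le_top)) hg
      (ω := tr b (g⁻¹ (.inl (i, 0)))) (ω' := g⁻¹ (.inl (i, 0))) (by
        rcases g⁻¹ (.inl (i, 0)) with ⟨j, y⟩ | k <;> simp [β])
    rw [← Perm.mul_apply, ← Perm.mul_apply, e] at this
    simpa [β] using this

theorem exists_aff {g : Perm (Pt p ι κ)}
    (hg : g ∈ Subgroup.normalizer (E0 p ι κ : Set (Perm (Pt p ι κ)))) :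
    ∃ σ t a, g = aff σ t a := by
  have hW : E0 p ι κ ≤ W p κ ⊤ := inf_le_left.trans (W_mono le_top)
  have h1 : ∀ k, g (.inr k) = .inr k := fun k => by
    rcases e : g (.inr k) with ⟨i, x⟩ | l
    · obtain ⟨j, hj, -⟩ := exists_third h3 i i
      obtain ⟨b, hb⟩ := mem_W_bot.1 ((inv_mem hg _).1 (two_mem (κ := κ) i j 1)).1
      have := congrArg (fun s => g (s (.inr k))) hb
      simp [e, hj.symm] at this
    · rw [Subsingleton.elim l k]
  have h2 : ∀ i x, ∃ j y, g (.inl (i, x)) = .inl (j, y) := fun i x => by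
    rcases e : g (.inl (i, x)) with ⟨j, y⟩ | k
    · exact ⟨j, y, rfl⟩
    · simpa using g.injective (e.trans (h1 k).symm)
  choose s f hf using h2
  have h4 : ∀ i x, s i x = s i 0 := fun i x => by
    simpa [hf, β] using β_map h3 le_rfl hW hg (ω := .inl (i, x)) (ω' := .inl (i, 0)) rfl
  have h5 : Function.Injective fun i => s i 0 := fun i j h => by
    simpa [β] using β_map h3 le_rfl hW (inv_mem hg) (ω := g (.inl (i, 0))) (ω' := g (.inl (j, 0)))
      (by simpa [hf, β] using h)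
  have h6 : ∀ i x, f i x = (f i 1 - f i 0) * x + f i 0 := fun i x => by
    obtain ⟨j, hj, -⟩ := exists_third h3 i i
    obtain ⟨b, hb⟩ := mem_W_bot.1 ((hg _).1 (two_mem (κ := κ) i j 1)).1
    have h7 : ∀ y, f i (y + 1) = f i y + b (s i 0) := fun y => by
      have := congrArg (· (g (.inl (i, y)))) hb
      simp only [Perm.mul_apply, show g⁻¹ (g (.inl (i, y))) = .inl (i, y) by simp] at this
      simpa [hj.symm, hf, h4 i y, h4 i (y + 1)] using this
    obtain ⟨n, rfl⟩ := ZMod.natCast_zmod_surjective x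
    induction n with
    | zero => simp
    | succ n ih =>
      have := h7 0
      rw [zero_add] at this
      rw [Nat.cast_succ, h7, ih, this]
      ring
  refine ⟨Equiv.ofBijective _ (Finite.injective_iff_bijective.1 h5), fun i => Units.mk0
    (f i 1 - f i 0) fun e => ?_, fun i => f i 0, ?_⟩
  · simpa using g.injective (a₁ := .inl (i, 1)) (a₂ := .inl (i, 0)) (by
      rw [hf, hf, h4 i 1, sub_eq_zero.1 e])
  · ext (⟨i, x⟩ | k)
    · rw [hf, h4, h6]
      rfl
    · exact h1 k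

theorem centric_E0 {c : Perm (Pt p ι κ)} (hc : c ∈ alternatingGroup _)
    (h : ∀ r ∈ E0 p ι κ, c * r = r * c) : c ∈ E0 p ι κ := by
  obtain ⟨σ, t, a, rfl⟩ := exists_aff h3 (mem_normalizer_of_conj_mem (g := c) fun x hx => by
    rwa [h x hx, mul_inv_cancel_right])
  have h1 : ∀ i j, j ≠ i → (t i : ZMod p) =
      (Pi.single i 1 - Pi.single j 1 : ι → ZMod p) (σ i) := fun i j hj => by
    have := congrArg (· (.inl (i, 0))) (h _ (two_mem i j 1))
    simpa [hj.symm, add_comm _ (a i)] using this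
  have h2 : ∀ i, σ i = i := fun i => by
    by_contra e
    obtain ⟨j, hj, hj'⟩ := exists_third h3 i (σ i)
    simpa [e, hj'.symm] using h1 i j hj
  refine ⟨mem_W_bot.2 ⟨a, ?_⟩, hc⟩
  congr 1
  · exact Perm.ext h2
  · ext i
    obtain ⟨j, hj, -⟩ := exists_third h3 i i
    simpa [h2, hj.symm] using h1 i j hj

theorem exists_conj_ind {x : Perm (Pt p ι κ)} (hx : x ^ p = 1) :
    ∃ s : Finset ι, IsConj (tr fun i => if i ∈ s then 1 else 0) x := by
  obtain ⟨k, hk⟩ : ∃ k, x.support.card = k * p :=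
    ⟨_, by rw [← sum_cycleType, cycleType_of_pow_prime_eq_one hx, Multiset.sum_replicate]; rfl⟩
  obtain ⟨s, -, hs⟩ := Finset.exists_subset_card_eq (s := (Finset.univ : Finset ι)) (n := k) (by
    have h1 := hk ▸ x.support.card_le_univ
    have h2 := Fintype.card_le_one_iff_subsingleton.2 ‹Subsingleton κ›
    have h4 := hp.out.one_lt
    simp only [Fintype.card_sum, Fintype.card_prod, ZMod.card] at h1
    rw [Finset.card_univ]
    by_contra! h
    nlinarith)
  exact ⟨s, isConj_of_pow (tr_pow _) hx (by simp [card_support_tr, hk, hs])⟩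

theorem exists_even_conj {x y : Perm (Pt p ι κ)} (hx : x ^ p = 1) (h : IsConj x y) :
    ∃ g ∈ alternatingGroup _, g * x * g⁻¹ = y := by
  obtain ⟨c, hc, hcx⟩ : ∃ c, sign c = -1 ∧ c * x * c⁻¹ = x := by
    obtain ⟨s, hs⟩ := exists_conj_ind h3 hx
    obtain ⟨g, rfl⟩ := isConj_iff.1 hs
    suffices ∃ c, sign c = -1 ∧ c * tr (fun i => if i ∈ s then 1 else 0) * c⁻¹ =
        tr (κ := κ) fun i => if i ∈ s then (1 : ZMod p) else 0 by
      obtain ⟨c, h1, h2⟩ := this
      refine ⟨g * c * g⁻¹, by simp [h1], ?_⟩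
      conv_rhs => rw [← h2]
      group
    obtain ⟨i, j, hij, e⟩ := Fintype.exists_ne_map_eq_of_card_lt (fun i => decide (i ∈ s))
      (by simp only [Fintype.card_bool]; omega)
    by_cases h2 : p = 2
    · exact ⟨_, sign_tr_single_two h2 i, by rw [tr_comm, mul_inv_cancel_right]⟩
    refine ⟨blk p κ (swap i j), by
      rw [sign_blk, sign_swap hij, (hp.out.odd_of_ne_two h2).neg_one_pow], ?_⟩
    rw [blk_mul_tr]
    congr 1
    ext k
    rw [decide_eq_decide] at e
    simp only [swap_inv, swap_apply_def]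
    split_ifs <;> simp_all
  obtain ⟨g, rfl⟩ := isConj_iff.1 h
  rcases Int.units_eq_one_or (sign g) with e | e
  · exact ⟨g, e, rfl⟩
  · refine ⟨g * c, by simp [mem_alternatingGroup, e, hc], ?_⟩
    conv_rhs => rw [← hcx]
    group

theorem sc_alt {P : Subgroup (Perm ι)} (hP : IsSylowIn p P ⊤)
    (h2 : p = 2 → ∃ i j, i ≠ j ∧ swap i j ∈ P) (T : Subgroup (Perm (Pt p ι κ)))
    (hT : T ≤ W p κ P ⊓ alternatingGroup _) (hne : T ≠ ⊥)
    (hsc : ∀ t ∈ T, ∀ g ∈ alternatingGroup _, g * t * g⁻¹ ∈ W p κ P ⊓ alternatingGroup _ →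
      g * t * g⁻¹ ∈ T) : W p κ P ⊓ alternatingGroup _ ≤ T := by
  have hκ := (Fintype.card_le_one_iff_subsingleton.2 ‹Subsingleton κ›).trans_lt hp.out.one_lt
  have hE : E0 p ι κ ≤ W p κ P ⊓ alternatingGroup _ := inf_le_inf_right _ (W_mono bot_le)
  have hU : ∀ t ∈ T, ∀ g ∈ W p κ P ⊓ alternatingGroup _, g * t * g⁻¹ ∈ T := fun t ht g hg =>
    hsc t ht g hg.2 (mul_mem (mul_mem hg (hT ht)) (inv_mem hg))
  have hc : ∀ t ∈ T, t ^ p = 1 → ∀ y ∈ W p κ P ⊓ alternatingGroup _, IsConj t y → y ∈ T :=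
    fun t ht htp y hy h => by
      obtain ⟨g, hg, rfl⟩ := exists_even_conj h3 htp h
      exact hsc t ht g hg hy
  have hc' : ∀ a b : ι → ZMod p, tr a ∈ T → tr b ∈ alternatingGroup (Pt p ι κ) →
      (Finset.univ.filter fun i => a i ≠ 0).card = (Finset.univ.filter fun i => b i ≠ 0).card →
      tr b ∈ T := fun a b ha hb h => hc _ ha (tr_pow a) _ ⟨tr_mem_W b, hb⟩
    (isConj_of_pow (tr_pow a) (tr_pow b) (by rw [card_support_tr, card_support_tr, h]))
  obtain ⟨a, ha, ha0⟩ : ∃ a, tr a ∈ T ∧ a ≠ 0 := by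
    obtain ⟨t, ht, h1⟩ := (T.bot_or_exists_ne_one).resolve_left hne
    by_cases h : ∀ r ∈ E0 p ι κ, t * r = r * t
    · obtain ⟨a, rfl⟩ := mem_W_bot.1 (centric_E0 h3 (hT ht).2 h).1
      exact ⟨a, ht, fun e => h1 (e ▸ tr_zero)⟩
    push Not at h
    obtain ⟨r, hr, h⟩ := h
    obtain ⟨a, e⟩ := mem_W_bot.1 (mul_mem ((W_le_normalizer (hT ht).1 r).1 hr) (inv_mem hr)).1
    refine ⟨a, e ▸ ?_, fun e' => h ?_⟩
    · simpa [mul_assoc] using mul_mem ht (hU _ (inv_mem ht) r (hE hr))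
    · rwa [e', tr_zero, mul_inv_eq_one, mul_inv_eq_iff_eq_mul] at e
  obtain ⟨i, hi⟩ := Function.ne_iff.1 ha0
  have key : (∀ j k x, tr (Pi.single j x - Pi.single k x) ∈ T) ∧
      ∀ x, tr (Pi.single i x) ∈ alternatingGroup (Pt p ι κ) → tr (Pi.single i x) ∈ T := by
    by_cases h : p = 2
    · have h1 := zmod_two h
      obtain ⟨j, k, hjk, h5⟩ : ∃ j k, j ≠ k ∧ tr (Pi.single j 1 - Pi.single k 1) ∈ T := by
        by_cases h5 : ∃ j, a j = 0
        · obtain ⟨j, hj⟩ := h5
          have hij : i ≠ j := fun e => hi (e ▸ hj)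
          have h6 := blk_mul_tr (κ := κ) (swap i j) a
          refine ⟨i, j, hij, ?_⟩
          rw [two_eq_sub ((h1 _).resolve_left hi) hj, tr_sub, ← h6]
          exact mul_mem ha (inv_mem (hsc _ ha _ (blk_even_two h _)
            ⟨h6 ▸ tr_mem_W _, alternatingGroup.normal.conj_mem _ (hT ha).2 _⟩))
        push Not at h5
        obtain rfl : a = 1 := funext fun j => (h1 _).resolve_left (h5 j)
        obtain ⟨j, k, hjk, h6⟩ := h2 h
        obtain ⟨l, hl, hl'⟩ := exists_third h3 j k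
        have h7 : blk p κ (swap j k) * tr (1 - (Pi.single j 1 - Pi.single k 1)) ∈ T := by
          refine hc _ ha (tr_pow _) _ ⟨⟨_, h6, _, rfl⟩, mul_mem (blk_even_two h _) ?_⟩
            (isConj_of_pow (tr_pow _) (swap_tr_pow h hjk) (by rw [swap_tr_support hjk]))
          rw [tr_sub]
          exact (alternatingGroup _).mul_mem (hT ha).2 (inv_mem (two_mem j k 1).2)
        exact ⟨k, j, hjk.symm, swap_tr_comm (p := p) (κ := κ) hjk hl hl' _ ▸
          mul_mem h7 (hU _ (inv_mem h7) _ (hE (two_mem j l 1)))⟩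
      refine ⟨fun j' k' x => ?_, fun x hx => ?_⟩
      · by_cases e : j' = k'
        · simp [e, tr_zero]
        rcases h1 x with rfl | rfl
        · simp [tr_zero]
        · exact hc' _ _ h5 (two_mem _ _ _).2 (by rw [card_two p hjk, card_two p e])
      · rcases h1 x with rfl | rfl
        · simp [tr_zero]
        · exact absurd ((sign_tr_single_two h i).symm.trans hx) (by decide)
    · have h1 : (2 : ZMod p) ≠ 0 := fun e => h ((Nat.prime_dvd_prime_iff_eq hp.out
        Nat.prime_two).1 ((ZMod.natCast_eq_zero_iff 2 p).1 e))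
      have h4 : tr (Pi.single i (a i)) ∈ T := by
        have := mul_mem (inv_mem ha) (hc' a (a + Pi.single i (a i)) ha (tr_even h _) (by
          congr 1
          ext m
          by_cases e : m = i
          · simp [e, ← two_mul, h1]
          · simp [e]))
        rwa [tr_add, inv_mul_cancel_left] at this
      have h5 : ∀ j x, tr (Pi.single j x) ∈ T := fun j x => by
        by_cases e : x = 0
        · simp [e, tr_zero]
        exact hc' _ _ h4 (tr_even h _) (by rw [card_single _ hi, card_single _ e])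
      exact ⟨fun j k x => by rw [tr_sub]; exact mul_mem (h5 j x) (inv_mem (h5 k x)),
        fun x _ => h5 i x⟩
  have hE0 : ∀ b, tr b ∈ alternatingGroup (Pt p ι κ) → tr b ∈ T := fun b hb => by
    let A : AddSubgroup (ι → ZMod p) :=
      { carrier := {a | tr a ∈ T}
        add_mem' := fun h h' => by simpa [tr_add] using mul_mem h h'
        zero_mem' := by simp [tr_zero]
        neg_mem' := fun h => by simpa [tr_neg] using h }
    have h1 : tr (∑ j, (Pi.single j (b j) - Pi.single i (b j))) ∈ T :=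
      A.sum_mem fun j _ => key.1 j i (b j)
    have h4 : b = ∑ j, (Pi.single j (b j) - Pi.single i (b j)) + Pi.single i (∑ j, b j) := by
      ext m
      simp only [Pi.add_apply, Finset.sum_apply, Pi.sub_apply, Pi.single_apply]
      split_ifs <;> simp
    rw [h4, tr_add] at hb ⊢
    exact mul_mem h1 (key.2 _ (((alternatingGroup _).mul_mem_cancel_left (hT h1).2).1 hb))
  have hall : ∀ x ∈ W p κ P ⊓ alternatingGroup _, x ^ p = 1 → x ∈ T := fun x hx hxp => by
    obtain ⟨s, hs⟩ := exists_conj_ind h3 hxp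
    refine hc _ (hE0 _ ?_) (tr_pow _) x hx hs
    obtain ⟨g, rfl⟩ := isConj_iff.1 hs
    exact alternatingGroup.normal.mem_comm_iff.1 hx.2 |> fun h => by simpa using h
  rintro _ ⟨⟨σ, hσ, a, rfl⟩, h⟩
  have h1 : σ ∈ T.comap (blk p κ) := ((Subgroup.closure_le (T.comap (blk p κ))).2 (fun x hx =>
    hall _ ⟨blk_mem_W hx.1, blk_even (k := 1) (by rw [pow_one, hx.2])⟩
      (by rw [← map_pow, hx.2, map_one])) (sylow_le_closure _ ι rfl P hP hσ))
  exact mul_mem h1 (hE0 a (((alternatingGroup _).mul_mem_cancel_left (hT h1).2).1 h))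

/-- The even elements of determinant one are products of `p`-elements. -/
theorem aff_mem_of_prod (hm : p ≤ Fintype.card ι) {X : Subgroup (Perm (Pt p ι κ))}
    (hX : ∀ g ∈ alternatingGroup _, g ∈ Subgroup.normalizer (E0 p ι κ : Set (Perm (Pt p ι κ))) →
      ∀ k, g ^ p ^ k = 1 → g ∈ X) {σ : Perm ι} {t : ι → (ZMod p)ˣ} {a : ι → ZMod p}
    (ht : ∏ i, t i = 1) (h : aff σ t a ∈ alternatingGroup (Pt p ι κ)) : aff σ t a ∈ X := by
  let K : Subgroup (Perm (Pt p ι κ)) := .closure {g | g ∈ alternatingGroup _ ∧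
    g ∈ Subgroup.normalizer (E0 p ι κ : Set (Perm (Pt p ι κ))) ∧ ∃ k, g ^ p ^ k = 1}
  refine (Subgroup.closure_le X).2 (fun g h => hX g h.1 h.2.1 _ h.2.2.choose_spec) (?_ : _ ∈ K)
  have hA : K ≤ alternatingGroup _ := (Subgroup.closure_le _).2 fun _ h => h.1
  have hN : ∀ g ∈ Subgroup.normalizer (E0 p ι κ : Set (Perm (Pt p ι κ))), ∀ x ∈ K,
      g * x * g⁻¹ ∈ K := fun g hg x hx => (mem_normalizer_closure (fun s h =>
    Subgroup.subset_closure (by exact ⟨alternatingGroup.normal.conj_mem _ h.1 _,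
      mul_mem (mul_mem hg h.2.1) (inv_mem hg), _, conj_pow_eq_one h.2.2.choose_spec⟩)) x).1 hx
  have h1 : ∀ σ : Perm ι, σ ^ p = 1 → σ ∈ K.comap (blk p κ) := fun σ h =>
    Subgroup.subset_closure ⟨blk_even (k := 1) (by rwa [pow_one]), aff_mem_normalizer σ 1 0, 1, by
      rw [pow_one, ← map_pow, h, map_one]⟩
  have h2 : p = 2 → ∀ σ, σ ∈ K.comap (blk p κ) := fun h σ =>
    (Subgroup.closure_le _).2 (fun x (hx : IsSwap x) => h1 x (by rw [h, ← hx.orderOf, pow_orderOf_eq_one]))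
      (closure_isSwap.ge (Subgroup.mem_top σ))
  have h4 : alternatingGroup ι ≤ K.comap (blk p κ) := by
    by_cases e : p = 2
    · exact fun σ _ => h2 e σ
    by_cases e' : p = 3
    · rw [← closure_three_cycles_eq_alternating, Subgroup.closure_le]
      exact fun σ hσ => h1 σ (by rw [e', ← hσ.orderOf, pow_orderOf_eq_one])
    have : (K.comap (blk p κ)).Normal := ⟨fun x hx g => by
      rw [Subgroup.mem_comap, map_mul, map_mul, map_inv]
      exact hN _ (aff_mem_normalizer g 1 0) _ hx⟩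
    obtain ⟨σ, hσ⟩ := exists_prime_orderOf_dvd_card p (G := Perm ι)
      (by rw [Fintype.card_perm]; exact Nat.dvd_factorial hp.out.pos hm)
    refine alternatingGroup_le_of_normal (by
      have := hp.out.five_le_of_ne_two_of_ne_three e e'
      simp only [Nat.card_eq_fintype_card]
      omega) ⟨⟨_, h1 σ (hσ ▸ pow_orderOf_eq_one σ)⟩, 1, fun e => ?_⟩
    rw [show σ = 1 from congrArg Subtype.val e, orderOf_one] at hσ
    exact hp.out.one_lt.ne hσ
  obtain ⟨j⟩ : Nonempty ι := Fintype.card_pos_iff.1 (by omega)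
  have h5 : dia κ t ∈ K := by
    have : t = ∏ i, Pi.mulSingle i (t i) * (Pi.mulSingle j (t i))⁻¹ := by
      have := map_prod (MonoidHom.mulSingle (fun _ : ι => (ZMod p)ˣ) j) t Finset.univ
      rw [ht, map_one] at this
      rw [Finset.prod_mul_distrib, Finset.univ_prod_mulSingle, Finset.prod_inv_distrib]
      exact (mul_inv_eq_iff_eq_mul.2 ((mul_eq_left.2 this.symm).symm)).symm
    rw [this]
    refine (K.comap (dia κ)).prod_mem fun i _ => ?_
    by_cases e : i = j
    · simp [e]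
    obtain ⟨k, hk, hk'⟩ := exists_third h3 i j
    have h5 := dia_single_eq (κ := κ) e hk hk' (t i)
    have h6 := h4 (mul_mem_alternatingGroup_of_isSwap ⟨j, i, Ne.symm e, rfl⟩ ⟨i, k, hk.symm, rfl⟩)
    rw [Subgroup.mem_comap, map_mul, map_inv, h5, mul_assoc, mul_assoc, ← mul_assoc (dia κ _)]
    exact mul_mem h6 (hN _ (aff_mem_normalizer 1 _ 0) _ (inv_mem h6))
  rw [aff_eq] at h ⊢
  replace h := (mul_mem_cancel_right (hA h5)).1 h
  have h6 : tr a ∈ alternatingGroup (Pt p ι κ) → tr a ∈ K := fun h =>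
    Subgroup.subset_closure ⟨h, aff_mem_normalizer 1 1 a, 1, by rw [pow_one, tr_pow]⟩
  by_cases e : p = 2
  · exact mul_mem (mul_mem (h2 e σ) (h6 ((mul_mem_cancel_left (blk_even_two e σ)).1 h))) h5
  refine mul_mem (mul_mem (h4 ?_) (h6 (tr_even e a))) h5
  have := (mul_mem_cancel_right (tr_even e a)).1 h
  rw [mem_alternatingGroup, sign_blk] at this
  rcases Int.units_eq_one_or (sign σ) with e' | e'
  · exact e'
  · rw [e', (hp.out.odd_of_ne_two e).neg_one_pow] at this
    exact absurd this (by decide)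

theorem crit_alt (hm : p ≤ Fintype.card ι) {P : Subgroup (Perm ι)} (hP : IsSylowIn p P ⊤)
    (h2 : p = 2 → ∃ i j, i ≠ j ∧ swap i j ∈ P)
    (hd : p ≠ 2 → ∀ u, ∃ σ t a, ∏ i, t i = u ∧ aff σ t a ∈ goodIn p (alternatingGroup (Pt p ι κ))
      (show E0 p ι κ ≤ W p κ P ⊓ alternatingGroup _ from inf_le_inf_right _ (W_mono bot_le))) :
    Crit p ((W p κ P ⊓ alternatingGroup _).subgroupOf (alternatingGroup (Pt p ι κ))) ⊥ := by
  have hκ := (Fintype.card_le_one_iff_subsingleton.2 ‹Subsingleton κ›).trans_lt hp.out.one_lt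
  have hE : E0 p ι κ ≤ W p κ P ⊓ alternatingGroup _ := inf_le_inf_right _ (W_mono bot_le)
  refine crit_of_in ((isSylowIn_W hκ hP).inf_of_normal le_top
    fun g _ x hx => alternatingGroup.normal.conj_mem x hx g) (fun e => ?_) (sc_alt h3 hP h2)
    fun g hg hN => mem_goodIn_up (h := hE) hE
      (fun c hc _ h => centric_E0 h3 hc fun r hr => h r hr hr.2) hN ?_
  · obtain ⟨i⟩ : Nonempty ι := Fintype.card_pos_iff.1 (by omega)
    obtain ⟨j, hj, -⟩ := exists_third h3 i i
    have := congrArg (· (.inl (i, 0))) (Subgroup.mem_bot.1 (e ▸ hE (two_mem i j 1)))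
    simp [hj.symm] at this
  obtain ⟨σ, t, a, rfl⟩ := exists_aff h3 (normalizer_le_E0 h3 hN)
  have hX := fun g h1 h2 k h3 => mem_goodIn_pel (p := p) (G := alternatingGroup _) (h := hE)
    (g := g) (k := k) h1 h2 h3
  by_cases e : p = 2
  · refine aff_mem_of_prod h3 hm hX (Units.ext ((zmod_two e _).resolve_left (Units.ne_zero _))) hg
  obtain ⟨σ', t', a', h4, h5⟩ := hd e (∏ i, t i)⁻¹
  refine (mul_mem_cancel_left h5).1 ?_
  have h6 := mul_mem (goodIn_le h5) hg
  rw [aff_mul] at h6 ⊢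
  exact aff_mem_of_prod h3 hm hX (by
    rw [Finset.prod_mul_distrib, Equiv.prod_comp σ t', h4, inv_mul_cancel]) h6

end

section

variable {ι₀ : Type} [Fintype ι₀] [DecidableEq ι₀]

/-- The cyclic shift of the first `p` blocks. -/
def shift (b : ZMod p) : Perm (ZMod p ⊕ ι₀) := Perm.sumCongr (Equiv.addRight b) 1

@[simp] theorem shift_inl (b y : ZMod p) : shift (ι₀ := ι₀) b (.inl y) = .inl (y + b) := rfl

@[simp] theorem shift_inr (b : ZMod p) (j : ι₀) : shift b (.inr j) = .inr j := rfl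

theorem shift_pow (b : ZMod p) (n : ℕ) : shift (ι₀ := ι₀) b ^ n = shift ((n : ZMod p) * b) := by
  induction n with
  | zero => ext (y | j) <;> simp
  | succ n ih =>
    rw [pow_succ, ih]
    ext (y | j) <;> simp
    ring

/-- Translations of the plane formed by the first `p` blocks and of the remaining blocks. -/
def pl (b c : ZMod p) (a : ι₀ → ZMod p) : Perm (Pt p (ZMod p ⊕ ι₀) κ) :=
  blk p κ (shift b) * tr (Sum.elim (fun _ => c) a)

theorem pl_mul (b c b' c' : ZMod p) (a a' : ι₀ → ZMod p) :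
    pl (κ := κ) b c a * pl b' c' a' = pl (b + b') (c + c') (a + a') := by
  ext (⟨y | j, x⟩ | k) <;> simp [pl, add_assoc, add_comm b, add_comm c, add_comm (a _)]

variable (p ι₀ κ) in
/-- The group of these translations. -/
def PL : Subgroup (Perm (Pt p (ZMod p ⊕ ι₀) κ)) := Lie.toSub
  { carrier := {g | ∃ b c a, g = pl b c a}
    mul_mem' := by
      rintro _ _ ⟨b, c, a, rfl⟩ ⟨b', c', a', rfl⟩
      exact ⟨_, _, _, pl_mul ..⟩
    one_mem' := ⟨0, 0, 0, by ext (⟨y | j, x⟩ | k) <;> simp [pl]⟩ }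

/-- Exchange of the two coordinates of the plane. -/
def flipFun : Pt p (ZMod p ⊕ ι₀) κ → Pt p (ZMod p ⊕ ι₀) κ
  | .inl (.inl y, x) => .inl (.inl x, y)
  | ω => ω

variable (p ι₀ κ) in
def flip : Perm (Pt p (ZMod p ⊕ ι₀) κ) :=
  Function.Involutive.toPerm flipFun (by rintro (⟨y | j, x⟩ | k) <;> rfl)

@[simp] theorem flip_apply (ω : Pt p (ZMod p ⊕ ι₀) κ) : flip p κ ι₀ ω = flipFun ω := rfl

theorem flip_mem : flip p κ ι₀ ∈ Subgroup.normalizer (PL p κ ι₀ : Set _) :=
  mem_normalizer_of_conj_mem (by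
    rintro _ ⟨b, c, a, rfl⟩
    refine ⟨c, b, a, ?_⟩
    rw [mul_inv_eq_iff_eq_mul]
    ext (⟨y | j, x⟩ | k) <;> simp [pl, flipFun])

theorem shear_mem (s : ZMod p) : tr (Sum.elim (fun y => s * y) 0) ∈
    Subgroup.normalizer (PL p κ ι₀ : Set (Perm (Pt p (ZMod p ⊕ ι₀) κ))) :=
  mem_normalizer_of_conj_mem (by
    rintro _ ⟨b, c, a, rfl⟩
    refine ⟨b, c + s * b, a, ?_⟩
    rw [mul_inv_eq_iff_eq_mul]
    ext (⟨y | j, x⟩ | k) <;> simp [pl]
    ring)

theorem centric_PL [Subsingleton κ] {c : Perm (Pt p (ZMod p ⊕ ι₀) κ)}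
    (h : ∀ r ∈ PL p κ ι₀, c * r = r * c) : c ∈ PL p κ ι₀ := by
  have h0 : ∀ b d a ω, c (pl b d a ω) = pl b d a (c ω) := fun b d a ω =>
    congrArg (· ω) (h _ ⟨b, d, a, rfl⟩)
  obtain ⟨b, d, h1⟩ : ∃ b d, c (.inl (.inl 0, 0)) = .inl (.inl b, d) := by
    have := h0 1 0 0 (.inl (.inl 0, 0))
    rcases e : c (.inl (.inl 0, 0)) with ⟨y | j, x⟩ | k
    · exact ⟨_, _, rfl⟩
    all_goals
      rw [e, show pl 1 0 0 _ = _ by simp [pl]; rfl, show pl 1 0 0 _ = _ by simp [pl]; rfl,
        ← e] at this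
      simpa using c.injective this
  have h2 : ∀ j, ∃ d, c (.inl (.inr j, 0)) = .inl (.inr j, d) := fun j => by
    have := h0 0 0 (Pi.single j 1) (.inl (.inr j, 0))
    have h2 : pl 0 0 (Pi.single j 1) (c (.inl (.inr j, 0))) ≠ c (.inl (.inr j, 0)) := fun e => by
      simpa [pl] using c.injective (this.trans e)
    rcases e : c (.inl (.inr j, 0)) with ⟨y | j', x⟩ | k <;> rw [e] at h2 <;>
      simp [pl, Pi.single_apply] at h2
    exact ⟨x, by rw [h2]⟩
  choose a ha using h2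
  have h3 : ∀ ω, c (.inl ω) = pl b d a (.inl ω) := by
    rintro ⟨y | j, x⟩
    · simpa [pl, h1, add_comm] using h0 y x 0 (.inl (.inl 0, 0))
    · simpa [pl, ha, add_comm] using h0 0 0 (Pi.single j x) (.inl (.inr j, 0))
  refine ⟨b, d, a, Perm.ext fun ω => ?_⟩
  rcases ω with ω | k
  · exact h3 ω
  rcases e : c (.inr k) with ω | l
  · obtain ⟨ω' | l, e'⟩ := (pl (κ := κ) b d a).surjective (.inl ω)
    · simpa using c.injective ((h3 ω').trans (e'.trans e.symm))
    · simp [pl] at e'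
  · simp [pl, Subsingleton.elim l k]

theorem exists_torus_alt [Subsingleton κ] (h2 : p ≠ 2) {P : Subgroup (Perm (ZMod p ⊕ ι₀))}
    (hP : shift 1 ∈ P) (u : (ZMod p)ˣ) : ∃ σ t a, ∏ i, t i = u ∧ aff σ t a ∈
      goodIn p (alternatingGroup (Pt p (ZMod p ⊕ ι₀) κ)) (show E0 p _ κ ≤ W p κ P ⊓
        alternatingGroup _ from inf_le_inf_right _ (W_mono bot_le)) := by
  have hE : E0 p _ κ ≤ W p κ P ⊓ alternatingGroup _ := inf_le_inf_right _ (W_mono bot_le)
  have hPL : PL p κ ι₀ ≤ W p κ P ⊓ alternatingGroup _ := by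
    rintro _ ⟨b, c, a, rfl⟩
    refine ⟨⟨_, ?_, _, rfl⟩, mul_mem (blk_even (k := 1) ?_) (tr_even h2 _)⟩
    · simpa [shift_pow] using pow_mem hP b.val
    · rw [pow_one, shift_pow]
      ext (y | j) <;> simp
  let σ : Perm (ZMod p ⊕ ι₀) := Perm.sumCongr u⁻¹.mulLeft 1
  let X : ZMod p → Perm (Pt p (ZMod p ⊕ ι₀) κ) := fun s => tr (Sum.elim (fun y => s * y) 0)
  let Y : ZMod p → Perm (Pt p (ZMod p ⊕ ι₀) κ) := fun s => flip p κ ι₀ * X s * (flip p κ ι₀)⁻¹
  have hX : ∀ s, X s ^ p ^ 1 = 1 := fun s => by rw [pow_one, tr_pow]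
  have hY : ∀ s, Y s ∈ Subgroup.normalizer (PL p κ ι₀ : Set _) := fun s =>
    mul_mem (mul_mem flip_mem (shear_mem s)) (inv_mem flip_mem)
  have hY' : ∀ s, Y s ∈ goodIn p (alternatingGroup _) hPL := fun s =>
    mem_goodIn_pel (even_of_pow h2 (conj_pow_eq_one (hX s))) (hY s) (conj_pow_eq_one (hX s))
  have e : aff σ (Sum.elim (fun _ => u) 1) (Sum.elim (fun y => (u - 1) * y) 0) =
      Y (-u⁻¹) * X (u - 1) * Y 1 := by
    have : (flip p κ ι₀)⁻¹ = flip p κ ι₀ := rfl
    ext (⟨y | j, x⟩ | k) <;> simp only [X, Y, this, Perm.mul_apply, flip_apply, flipFun, tr_inl,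
      tr_inr, aff_inl, aff_inr, Sum.elim_inl, Sum.elim_inr]
    · rw [show σ (.inl y) = .inl ((u⁻¹ : (ZMod p)ˣ) * y) from rfl]
      congr 2
      · congr 1
        linear_combination (x + y) * u.inv_mul
      · ring
    · rw [show σ (.inr j) = .inr j from rfl]
      simp only [Pi.one_apply, Pi.zero_apply, Units.val_one, one_mul, add_zero]
  refine ⟨σ, Sum.elim (fun _ => u) 1, Sum.elim (fun y => (u - 1) * y) 0, ?_,
    mem_goodIn_down (h' := sup_le hPL hE) le_sup_right (aff_mem_normalizer _ _ _)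
      (mem_goodIn_up (h := hPL) le_sup_left (fun c _ _ h => centric_PL fun r hr =>
        h r hr (hPL hr).2) (Subgroup.normalizer_inf_normalizer_le_normalizer_sup _ _
          ⟨e ▸ mul_mem (mul_mem (hY _) (shear_mem _)) (hY _), aff_mem_normalizer _ _ _⟩)
        (e ▸ mul_mem (mul_mem (hY' _) (mem_goodIn_pel (tr_even h2 _) (shear_mem _) (hX _)))
          (hY' _)))⟩
  simp [Units.ext_iff]

end

theorem isSimple_alt {n : ℕ} (hn : 6 ≤ n) (hnp : p ^ 2 ≤ n) (hb : n % p ≤ 1)
    (S : Sylow p (alternatingGroup (Fin n))) :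
    (groupFusionSystem (S : Subgroup (alternatingGroup (Fin n)))).IsSimple p := by
  have h1 : p ≤ n / p := (Nat.le_div_iff_mul_le hp.out.pos).2 (by rwa [← sq])
  have h2 : 3 ≤ n / p := by
    by_cases e : p = 2
    · subst e
      omega
    · exact (hp.out.two_le.lt_of_ne' e).trans_le' le_rfl |>.trans_le h1
  have : Subsingleton (Fin (n % p)) := Fin.subsingleton_iff_le_one.2 hb
  have h3 : Fintype.card (ZMod p ⊕ Fin (n / p - p)) = n / p := by simp [h1]
  obtain ⟨P, hP, h4⟩ := exists_isSylowIn_ge (B := Subgroup.zpowers (shift (ι₀ := Fin (n / p - p))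
    (1 : ZMod p))) (isPGroup_zpowers_of_pow (p := p) (k := 1) (by
      rw [pow_one, shift_pow]
      ext (y | j) <;> simp)) le_top
  replace h4 := h4 (Subgroup.mem_zpowers _)
  refine (crit_alt (κ := Fin (n % p)) (h2.trans h3.ge) (h1.trans h3.ge) hP (fun e => ⟨.inl 0, .inl 1, by simp, ?_⟩)
    fun e => exists_torus_alt e h4).isSimple_equiv (Fintype.equivOfCardEq (by
      simp [h1, Nat.div_add_mod'])).altCongrHom S
  convert h4
  ext (y | j)
  · rcases zmod_two e y with rfl | rfl <;> simp [one_add_one e]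
  · simp [swap_apply_def]

end Cfsg.Agent.Alt
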